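import Cfsg.Agent.Lib.CharTheory.Orthogonality
import Cfsg.Agent.Lib.Coherence.Inner
import Cfsg.Agent.Lib.Coherence.Constituent
import Cfsg.Agent.Lib.CharTheory.Linear
import Cfsg.Agent.Lib.CharTheory.Ito
import Mathlib.Algebra.Order.Chebyshev

/-!
# The mass of a generalized character of an abelian group outside the identity

If on a set `R` of linear characters the coefficients of `F` are a constant plus a known part `b`,
then the sum of `|F|²` over the nontrivial elements has a lower bound in terms of `b` and `|R|`.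
-/

set_option autoImplicit false
set_option linter.style.haveILetI false
set_option linter.unusedSectionVars false

open Cfsg CfsgLib.CharTheory
open scoped ComplexConjugate

namespace CfsgLib.FT.PF13B

universe u

variable {H : Type u} [Group H] [Fintype H]

theorem degree_eq_one (hab : IsMulCommutative H) {χ : H → ℂ} (hχ : IsIrrCharacter H χ) :
    χ 1 = 1 := by
  exact apply_one_eq_one_of_comm hab.is_comm.comm hχ

/-- The identity behind the bound. -/
theorem sum_punctured_eq (hab : IsMulCommutative H) [DecidableEq H] [Fintype (IrrCharacter H)]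
    {F : H → ℂ} (hF : IsGeneralizedCharacter H F) (a : ℤ) (g : IrrCharacter H → ℤ)
    (hg : ∀ φ : IrrCharacter H, classInner F (φ : H → ℂ) = (a : ℂ) + g φ) :
    ∑ x ∈ Finset.univ.erase (1 : H), ‖F x‖ ^ 2 =
      (Nat.card H : ℝ) * ∑ φ, (g φ : ℝ) ^ 2 - (∑ φ, (g φ : ℝ)) ^ 2 := by
  classical
  set reg : H → ℂ := fun x => if x = 1 then (Nat.card H : ℂ) else 0 with hreg
  set G' : H → ℂ := F - (a : ℂ) • reg with hG'
  have hcl : ∀ f : H → ℂ, IsClassFunction H f := fun f x y => by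
    rw [hab.is_comm.comm y x, mul_inv_cancel_right]
  have hin : ∀ φ : IrrCharacter H, classInner G' (φ : H → ℂ) = (g φ : ℂ) := by
    intro φ
    have hr : classInner reg (φ : H → ℂ) = 1 := by
      rw [classInner, Finset.sum_eq_single (1 : H)]
      · simp [hreg, degree_eq_one hab φ.2]
      · intro b _ hb; simp [hreg, hb]
      · simp
    rw [hG', CfsgLib.Coherence.inner_sub_left, CfsgLib.Coherence.inner_smul_left, hr, hg]
    ring
  have hexp : G' = ∑ φ : IrrCharacter H, (g φ : ℂ) • (φ : H → ℂ) := by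
    conv_lhs => rw [eq_sum_classInner (hcl G')]
    simp [hin]
  have h1 : G' 1 = ∑ φ : IrrCharacter H, (g φ : ℂ) := by
    rw [hexp, Finset.sum_apply]
    simp [degree_eq_one hab (Subtype.prop _)]
  have hnorm : classInner G' G' = ∑ φ : IrrCharacter H, (g φ : ℂ) ^ 2 := by
    nth_rw 2 [hexp]
    rw [CfsgLib.Coherence.inner_sum_right]
    refine Finset.sum_congr rfl fun φ _ => ?_
    rw [CfsgLib.Coherence.inner_smul_right, hin, map_intCast, pow_two]
  have hall : ∑ x, ‖G' x‖ ^ 2 = (Nat.card H : ℝ) * ∑ φ, (g φ : ℝ) ^ 2 := by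
    apply Complex.ofReal_injective
    push_cast
    rw [← hnorm, classInner, ← mul_assoc, mul_inv_cancel₀ (Nat.cast_ne_zero.2 Nat.card_pos.ne'),
      one_mul]
    exact Finset.sum_congr rfl fun x _ => (Complex.mul_conj' (G' x)).symm
  have hone : ‖G' 1‖ ^ 2 = (∑ φ, (g φ : ℝ)) ^ 2 := by
    rw [h1, show (∑ φ : IrrCharacter H, (g φ : ℂ)) = ((∑ φ, (g φ : ℝ) : ℝ) : ℂ) by push_cast; rfl,
      Complex.norm_real, Real.norm_eq_abs, sq_abs]
  have heq : ∀ x ∈ Finset.univ.erase (1 : H), ‖F x‖ ^ 2 = ‖G' x‖ ^ 2 := fun x hx => by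
    simp [hG', hreg, Finset.ne_of_mem_erase hx]
  rw [Finset.sum_congr rfl heq, Finset.sum_erase_eq_sub (Finset.mem_univ _), hall, hone]

/-- The general bound. -/
theorem le_sum_punctured (hab : IsMulCommutative H) [DecidableEq H]
    [Fintype (IrrCharacter H)] (R : Finset (IrrCharacter H))
    {F : H → ℂ} (hF : IsGeneralizedCharacter H F) (a : ℤ) (b : IrrCharacter H → ℤ)
    (hR : ∀ φ ∈ R, classInner F (φ : H → ℂ) = (a : ℂ) + b φ) (hne : R.Nonempty) :
    (Nat.card H : ℝ) * ∑ φ ∈ R, (b φ : ℝ) ^ 2 -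
        (∑ φ ∈ R, (b φ : ℝ)) ^ 2 * (Nat.card H : ℝ) / R.card ≤
      ∑ x ∈ Finset.univ.erase (1 : H), ‖F x‖ ^ 2 ∧
    ((∀ φ ∈ R, b φ = 0) → (∃ x, x ≠ 1 ∧ F x ≠ 0) →
      (R.card : ℝ) ≤ ∑ x ∈ Finset.univ.erase (1 : H), ‖F x‖ ^ 2) := by
  classical
  have hint : ∀ φ : IrrCharacter H, ∃ z : ℤ, classInner F (φ : H → ℂ) = z := fun φ =>
    exists_classInner_eq_int hF (IsIrrCharacter.isGeneralizedCharacter φ.2)
  choose z hz using hint
  let g : IrrCharacter H → ℤ := fun φ => z φ - a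
  have key := sum_punctured_eq hab hF a g fun φ => by rw [hz]; simp [g]
  have hgR : ∀ φ ∈ R, g φ = b φ := fun φ hφ => by
    have := (hz φ).symm.trans (hR φ hφ)
    have h2 : z φ = a + b φ := by exact_mod_cast this
    simp [g, h2]
  have hcardI : Fintype.card (IrrCharacter H) = Nat.card H := by
    have h := sum_degree_sq (G := H)
    simp only [degree_eq_one hab (Subtype.prop _), one_pow, Finset.sum_const, Finset.card_univ,
      nsmul_eq_mul, mul_one, Nat.cast_inj] at h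
    exact h
  have hsplit : ∀ f : IrrCharacter H → ℝ, ∑ φ, f φ = ∑ φ ∈ R, f φ + ∑ φ ∈ Rᶜ, f φ :=
    fun f => (Finset.sum_add_sum_compl R f).symm
  have eR1 : ∑ φ ∈ R, (g φ : ℝ) = ∑ φ ∈ R, (b φ : ℝ) :=
    Finset.sum_congr rfl fun φ hφ => by rw [hgR φ hφ]
  have eR2 : ∑ φ ∈ R, (g φ : ℝ) ^ 2 = ∑ φ ∈ R, (b φ : ℝ) ^ 2 :=
    Finset.sum_congr rfl fun φ hφ => by rw [hgR φ hφ]
  have hr : (0 : ℝ) < R.card := Nat.cast_pos.2 hne.card_pos
  have hK : (Rᶜ.card : ℝ) = (Nat.card H : ℝ) - R.card := by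
    rw [Finset.card_compl, hcardI, Nat.cast_sub (hcardI ▸ R.card_le_univ)]
  have hCS : (∑ φ ∈ Rᶜ, (g φ : ℝ)) ^ 2 ≤ Rᶜ.card * ∑ φ ∈ Rᶜ, (g φ : ℝ) ^ 2 :=
    sq_sum_le_card_mul_sum_sq
  rw [key, hsplit, hsplit, eR1, eR2]
  set B := ∑ φ ∈ R, (b φ : ℝ) with hB
  set o := ∑ φ ∈ R, (b φ : ℝ) ^ 2 with ho
  set s := ∑ φ ∈ Rᶜ, (g φ : ℝ) with hs
  set n := ∑ φ ∈ Rᶜ, (g φ : ℝ) ^ 2 with hn
  set hh := (Nat.card H : ℝ) with hhh
  rw [hK] at hCS
  have hn0 : 0 ≤ n := Finset.sum_nonneg fun φ _ => sq_nonneg _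
  have hh0 : 0 ≤ hh := Nat.cast_nonneg _
  refine ⟨?_, fun hb hx => ?_⟩
  · rw [sub_le_iff_le_add, ← sub_le_iff_le_add', le_div_iff₀ hr]
    by_cases hs0 : s = 0
    · rw [hs0]
      have hK0 : (R.card : ℝ) ≤ hh := by
        have : (0 : ℝ) ≤ Rᶜ.card := Nat.cast_nonneg _
        linarith
      nlinarith [mul_nonneg (mul_nonneg hh0 hr.le) hn0,
        mul_le_mul_of_nonneg_left hK0 (sq_nonneg B)]
    · have hKpos : 0 < hh - R.card := by
        by_contra hle
        have : s ^ 2 ≤ 0 := hCS.trans (mul_nonpos_of_nonpos_of_nonneg (not_lt.1 hle) hn0)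
        exact hs0 (pow_eq_zero_iff two_ne_zero |>.1 (le_antisymm this (sq_nonneg s)))
      refine le_of_mul_le_mul_left ?_ hKpos
      nlinarith [sq_nonneg (B * (hh - R.card) - s * R.card),
        mul_le_mul_of_nonneg_left hCS (mul_nonneg hh0 hr.le)]
  · have hB0 : B = 0 := Finset.sum_eq_zero fun φ hφ => by rw [hb φ hφ, Int.cast_zero]
    have ho0 : o = 0 := Finset.sum_eq_zero fun φ hφ => by
      rw [hb φ hφ, Int.cast_zero]; ring
    have hn1 : 1 ≤ n := by
      by_contra hlt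
      have hzero : ∀ φ, g φ = 0 := fun φ => by
        by_cases hφ : φ ∈ R
        · rw [hgR φ hφ, hb φ hφ]
        · by_contra h0
          refine hlt (le_trans ?_ (Finset.single_le_sum (f := fun ψ => (g ψ : ℝ) ^ 2)
            (fun ψ _ => sq_nonneg _) (Finset.mem_compl.2 hφ)))
          have : (1 : ℤ) ≤ g φ ^ 2 := by
            nlinarith [Int.one_le_abs h0, sq_abs (g φ), abs_nonneg (g φ)]
          exact_mod_cast this
      obtain ⟨x, hx1, hxF⟩ := hx
      have h0 := key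
      simp only [hzero, Int.cast_zero, ne_eq, OfNat.ofNat_ne_zero, not_false_eq_true, zero_pow,
        Finset.sum_const_zero, mul_zero, sub_zero] at h0
      have := (Finset.sum_eq_zero_iff_of_nonneg fun y _ => sq_nonneg ‖F y‖).1 h0 x
        (Finset.mem_erase.2 ⟨hx1, Finset.mem_univ x⟩)
      exact hxF (norm_eq_zero.1 (pow_eq_zero_iff two_ne_zero |>.1 this))
    rw [hB0, ho0, zero_add, zero_add]
    nlinarith [mul_le_mul_of_nonneg_left hn1 hr.le]

end CfsgLib.FT.PF13B
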