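import Cfsg.Agent.Lib.FT.TypeP
import Cfsg.Agent.Lib.FT.PairHyp
import Cfsg.Agent.Lib.FT.Pair.Results
import Cfsg.Agent.Lib.FT.PF9.Stab
import Cfsg.Agent.Lib.PFLocal.Conj
import Cfsg.Agent.S1497

/-!
# One member of the pair: the subgroup `F(M) = P C` and the TI facts
-/

set_option autoImplicit false
set_option linter.style.haveILetI false
set_option linter.unusedSectionVars false

open Cfsg

namespace CfsgLib.FT.PF13B

open CfsgLib.FT.PF9 CfsgLib.BGAppendix
open scoped commutatorElement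

universe u

variable {G : Type u} [Group G]

/-- What is used about one member `M` of the pair. -/
structure Side (M W₁ U W₂ : Subgroup G) : Prop where
  data : IsTypePWith M W₁ U W₂
  odd : Odd (Nat.card G)
  solv : Group.IsSolvable M
  q_prime : (Nat.card W₁).Prime
  p_prime : (Nat.card W₂).Prime
  U_comm : IsMulCommutative U
  U_ne : U ≠ ⊥
  elem : IsElementaryAbelian (Nat.card W₂) (fittingHallOf M)
  card_F : Nat.card (fittingHallOf M) = Nat.card W₂ ^ Nat.card W₁
  ti : IsTISubset (typeA0 M)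
  norm : Subgroup.normalizer (typeA0 M) = M

/-- `C = C_U(P)`. -/
def fixU (M U : Subgroup G) : Subgroup G :=
  U ⊓ Subgroup.centralizer (fittingHallOf M : Set G)

/-- `H = P C`. -/
def kerH (M U : Subgroup G) : Subgroup G := fittingHallOf M ⊔ fixU M U

/-- `H` as a subgroup of `M`. -/
abbrev kerIn (M U : Subgroup G) : Subgroup M := (kerH M U).subgroupOf M

variable [Finite G] {S T W₁ W₂ U V M : Subgroup G}

/-- Both members of the pair satisfy the hypothesis. -/
theorem side_of_pair (h : PairHyp S T W₁ W₂ U V) (hS : Pair.KernelFacts S W₁ W₂)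
    (hT : Pair.KernelFacts T W₂ W₁) : Side S W₁ U W₂ := by
  have h1 := Pair.prime_and_ne_bot h.dataS (hS.1.elim Or.inl (Or.inr ∘ Or.inl))
  have h2 := Pair.prime_and_ne_bot h.dataT (hT.1.elim Or.inl (Or.inr ∘ Or.inl))
  exact ⟨h.dataS, h.odd_card, h.solvable_S, h1.1, h2.1, Pair.U_comm h.dataS hS.1, h1.2,
    hS.2.2.1, hS.2.2.2.1, hS.2.2.2.2.1, hS.2.2.2.2.2⟩

namespace Side

variable (h : Side M W₁ U W₂)
include h

theorem F_le : fittingHallOf M ≤ M := fittingHallOf_le M

theorem fixU_le : fixU M U ≤ U := inf_le_left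

theorem fixU_centralizes {c x : G} (hc : c ∈ fixU M U) (hx : x ∈ fittingHallOf M) :
    x * c = c * x := Subgroup.mem_centralizer_iff.1 hc.2 x hx

theorem kerH_le_derived : kerH M U ≤ ⁅M, M⁆ :=
  sup_le (F_le_derived h.data) (inf_le_left.trans (U_le_derived h.data))

theorem kerH_le : kerH M U ≤ M := h.kerH_le_derived.trans (derived_le h.data)

theorem F_le_kerH : fittingHallOf M ≤ kerH M U := le_sup_left

theorem W₂_le_kerH : W₂ ≤ kerH M U := (W₂_le_F h.data).trans le_sup_left

theorem comm_kerH : ∀ x ∈ kerH M U, ∀ y ∈ kerH M U, x * y = y * x := by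
  have hF := h.elem.1.is_comm.comm
  have hU := h.U_comm.is_comm.comm
  have h1 : fittingHallOf M ≤ Subgroup.centralizer (fittingHallOf M : Set G) := fun x hx =>
    Subgroup.mem_centralizer_iff.2 fun y hy => congrArg Subtype.val (hF ⟨y, hy⟩ ⟨x, hx⟩)
  have h2 : fixU M U ≤ Subgroup.centralizer (fixU M U : Set G) := fun x hx =>
    Subgroup.mem_centralizer_iff.2 fun y hy => congrArg Subtype.val (hU ⟨y, hy.1⟩ ⟨x, hx.1⟩)
  have h3 : fixU M U ≤ Subgroup.centralizer (fittingHallOf M : Set G) := inf_le_right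
  have h4 : fittingHallOf M ≤ Subgroup.centralizer (fixU M U : Set G) :=
    Subgroup.le_centralizer_iff.1 h3
  have hle : kerH M U ≤ Subgroup.centralizer (kerH M U : Set G) :=
    sup_le (Subgroup.le_centralizer_iff.1 (sup_le h1 h3))
      (Subgroup.le_centralizer_iff.1 (sup_le h4 h2))
  exact fun x hx y hy => (Subgroup.mem_centralizer_iff.1 (hle hx) y hy).symm

theorem fixU_conj {g c : G} (hg : g ∈ U ⊔ W₁) (hc : c ∈ fixU M U) : g * c * g⁻¹ ∈ fixU M U := by
  have hUn : U ⊔ W₁ ≤ Subgroup.normalizer (U : Set G) := sup_le Subgroup.le_normalizer h.data.U_normal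
  refine ⟨(Subgroup.mem_normalizer_iff.1 (hUn hg) c).1 hc.1,
    Subgroup.mem_centralizer_iff.2 fun x hx => ?_⟩
  have hx' : g⁻¹ * x * g ∈ fittingHallOf M := by
    simpa using conj_mem_F h.data (inv_mem (UW_le h.data hg)) hx
  have := h.fixU_centralizes hc hx'
  calc x * (g * c * g⁻¹) = g * ((g⁻¹ * x * g) * c) * g⁻¹ := by group
    _ = g * (c * (g⁻¹ * x * g)) * g⁻¹ := by rw [this]
    _ = g * c * g⁻¹ * x := by group

theorem le_normalizer_kerH : M ≤ Subgroup.normalizer (kerH M U : Set G) := by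
  refine (sup_eq h.data).ge.trans (sup_le ?_ ?_)
  · exact h.F_le_kerH.trans Subgroup.le_normalizer
  · intro g hg
    refine CfsgLib.CoprimeAction.mem_normalizer_of_conj_mem fun y hy => ?_
    have hle : kerH M U ≤ (kerH M U).comap (MulAut.conj g).toMonoidHom := by
      refine sup_le (fun x hx => ?_) fun x hx => ?_
      · exact Subgroup.mem_comap.2 (by
          simpa using h.F_le_kerH (conj_mem_F h.data (UW_le h.data hg) hx))
      · exact Subgroup.mem_comap.2 (by
          simpa [kerH] using (le_sup_right : fixU M U ≤ kerH M U) (h.fixU_conj hg hx))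
    simpa using hle hy

theorem kerIn_normal : (kerIn M U).Normal :=
  (Subgroup.normal_subgroupOf_iff_le_normalizer h.kerH_le).2 h.le_normalizer_kerH

theorem F_inf_fixU : fittingHallOf M ⊓ fixU M U = ⊥ :=
  le_bot_iff.1 ((inf_le_inf_left _ inf_le_left).trans h.data.U_compl.2.2.1.le)

theorem card_kerH : Nat.card (kerH M U) = Nat.card (fittingHallOf M) * Nat.card (fixU M U) := by
  rw [kerH, sup_comm, card_sup_eq_mul _ _ ?_ (by rw [inf_comm]; exact h.F_inf_fixU), mul_comm]
  exact (inf_le_left.trans (U_le h.data)).trans (le_normalizer_fittingHallOf M)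

theorem card_U : Nat.card (fixU M U) * (fixU M U).relIndex U = Nat.card U := by
  have := Subgroup.relIndex_mul_relIndex ⊥ (fixU M U) U bot_le inf_le_left
  rwa [Subgroup.relIndex_bot_left, Subgroup.relIndex_bot_left] at this

theorem card_M : Nat.card M =
    Nat.card (kerH M U) * (fixU M U).relIndex U * Nat.card W₁ := by
  rw [← card_eq h.data, h.card_kerH, ← h.card_U]
  ring

theorem mem_typeA_of_kerH {g : G} (hg : g ∈ kerH M U) (hg1 : g ≠ 1) : g ∈ typeA M := by
  refine (mem_typeA_iff h.data g).2 ⟨h.kerH_le_derived hg, hg1, ?_⟩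
  obtain ⟨x, hx, hx1⟩ := (Subgroup.bot_or_exists_ne_one W₂).resolve_left h.data.selfNormalizing.2.1
  exact ⟨x, fittingHallOf_le_typeCore h.data (W₂_le_F h.data hx), hx1,
    h.comm_kerH g hg x (h.W₂_le_kerH hx)⟩

theorem mem_typeA0_of_kerH {g : G} (hg : g ∈ kerH M U) (hg1 : g ≠ 1) : g ∈ typeA0 M :=
  Or.inl (h.mem_typeA_of_kerH hg hg1)

theorem one_not_mem_A0 : (1 : G) ∉ typeA0 M := by
  rw [mem_typeA0_iff h.solv h.data]
  rintro (hA | ⟨m, -, w, -, hw1, -, e⟩)
  · exact ((mem_typeA_iff h.data 1).1 hA).2.1 rfl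
  · refine hw1 ?_
    rw [eq_comm, conj_eq_one_iff] at e
    exact e ▸ one_mem _

theorem mem_of_conj {g a : G} (ha : a ∈ typeA0 M) (hga : g * a * g⁻¹ ∈ typeA0 M) : g ∈ M := by
  by_contra hg
  rw [← h.norm] at hg
  exact h.one_not_mem_A0 (h.ti g hg a ha hga ▸ ha)

theorem centralizer_le {a : G} (ha : a ∈ typeA0 M) : Subgroup.centralizer ({a} : Set G) ≤ M := by
  intro g hg
  refine h.mem_of_conj ha ?_
  rw [Subgroup.mem_centralizer_singleton_iff.1 hg, mul_inv_cancel_right]
  exact ha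

theorem fusion_kerH {g a : G} (ha : a ∈ kerH M U) (ha1 : a ≠ 1) (hga : g * a * g⁻¹ ∈ kerH M U) :
    g ∈ M :=
  h.mem_of_conj (h.mem_typeA0_of_kerH ha ha1)
    (h.mem_typeA0_of_kerH hga fun e => ha1 (conj_eq_one_iff.1 e))

theorem supportR_bot {a : G} (ha : a ∈ typeA0 M) : supportR M a = ⊥ :=
  CfsgLib.PFLocal.supportR_eq_bot_of_le (h.centralizer_le ha)

/-- The Dade hypothesis for `A₀(M)`. -/
theorem dade : DadeHypothesis (typeA0 M) M (supportR M) := by
  obtain ⟨x, hx, hx1⟩ := (Subgroup.bot_or_exists_ne_one W₂).resolve_left h.data.selfNormalizing.2.1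
  have hD := (Cfsg.Agent.S1497.result (typeA0 M)
    ⟨x, h.mem_typeA0_of_kerH (h.W₂_le_kerH hx) hx1⟩ h.one_not_mem_A0 M).1 ⟨h.ti, h.norm⟩
  exact
    { one_not_mem := hD.one_not_mem
      subset := hD.subset
      conj_mem := hD.conj_mem
      fusion := hD.fusion
      le_centralizer := fun a ha => (h.supportR_bot ha) ▸ hD.le_centralizer a ha
      conj_mem_H := fun a ha => (h.supportR_bot ha) ▸ hD.conj_mem_H a ha
      inf_eq_bot := fun a ha => (h.supportR_bot ha) ▸ hD.inf_eq_bot a ha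
      sup_eq := fun a ha => (h.supportR_bot ha) ▸ hD.sup_eq a ha
      coprime := fun a ha => (h.supportR_bot ha) ▸ hD.coprime a ha }

/-- The prime TI Dade hypothesis. -/
theorem primeDade : PrimeDade (typeA M) (typeA0 M) M (supportR M) (FT.derivedIn M) (coreIn M) W₁ W₂ :=
  primeDade_of_typeP h.odd h.solv h.data h.dade

theorem three_le_q : 3 ≤ Nat.card W₁ := by
  have h1 := h.q_prime.two_le
  have h2 : Odd (Nat.card W₁) := Odd.of_dvd_nat h.odd (Subgroup.card_subgroup_dvd_card _)
  obtain ⟨k, hk⟩ := h2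
  omega

theorem three_le_p : 3 ≤ Nat.card W₂ := by
  have h1 := h.p_prime.two_le
  have h2 : Odd (Nat.card W₂) := Odd.of_dvd_nat h.odd (Subgroup.card_subgroup_dvd_card _)
  obtain ⟨k, hk⟩ := h2
  omega

theorem fixU_lt : fixU M U < U := by
  refine lt_of_le_of_ne inf_le_left fun e => ?_
  exact (typeP_derived_complement h.data).2 h.U_ne (e ▸ inf_le_right)

theorem odd_u : Odd ((fixU M U).relIndex U) :=
  Odd.of_dvd_nat h.odd ((Dvd.intro_left _ h.card_U).trans (Subgroup.card_subgroup_dvd_card U))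

theorem one_lt_u : 1 < (fixU M U).relIndex U := by
  have h0 : (fixU M U).relIndex U ≠ 1 := fun e =>
    h.fixU_lt.not_ge (Subgroup.relIndex_eq_one.1 e)
  have h2 := h.odd_u.pos
  omega

theorem odd_c : Odd (Nat.card (fixU M U)) :=
  Odd.of_dvd_nat h.odd (Subgroup.card_subgroup_dvd_card _)

/-- A `W₁`-invariant subgroup of `U` has order congruent to `1` modulo `q`. -/
theorem modEq_one {X : Subgroup G} (hX : X ≤ U) (hn : W₁ ≤ Subgroup.normalizer (X : Set G)) :
    Nat.card X % Nat.card W₁ = 1 := by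
  haveI := Fact.mk h.q_prime
  letI : MulAction W₁ X :=
    { smul := fun w x => ⟨(w : G) * x * (w : G)⁻¹,
        (Subgroup.mem_normalizer_iff.1 (hn w.2) x).1 x.2⟩
      one_smul := fun x => Subtype.ext (by
        show ((1 : W₁) : G) * x * ((1 : W₁) : G)⁻¹ = x; simp)
      mul_smul := fun a b x => Subtype.ext (by
        show ((a * b : W₁) : G) * x * ((a * b : W₁) : G)⁻¹ = a * (b * x * (b : G)⁻¹) * (a : G)⁻¹
        simp [mul_assoc]) }
  have hP : IsPGroup (Nat.card W₁) W₁ := IsPGroup.of_card (n := 1) (by rw [pow_one])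
  have hfix : MulAction.fixedPoints W₁ X = {1} := by
    ext x
    constructor
    · intro hx
      obtain ⟨w, hw, hw1⟩ := (Subgroup.bot_or_exists_ne_one W₁).resolve_left h.data.W₁_ne
      have e : w * (x : G) * w⁻¹ = x := congrArg Subtype.val (hx ⟨w, hw⟩)
      have : (x : G) ∈ U ⊓ Subgroup.centralizer ({w} : Set G) := by
        refine ⟨hX x.2, Subgroup.mem_centralizer_singleton_iff.2 ?_⟩
        exact (mul_inv_eq_iff_eq_mul.1 e).symm
      rw [U_inf_centralizer h.data hw hw1, Subgroup.mem_bot] at this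
      exact Subtype.ext this
    · rintro rfl w
      exact Subtype.ext (show (w : G) * (1 : G) * (w : G)⁻¹ = 1 by simp)
  have hmod := hP.card_modEq_card_fixedPoints (α := X)
  rw [hfix, Nat.card_coe_set_eq, Set.ncard_singleton, Nat.ModEq,
    Nat.mod_eq_of_lt h.q_prime.one_lt] at hmod
  exact hmod

theorem c_mod : Nat.card (fixU M U) % Nat.card W₁ = 1 :=
  h.modEq_one inf_le_left fun _ hw => CfsgLib.CoprimeAction.mem_normalizer_of_conj_mem fun _ hx =>
    h.fixU_conj (Subgroup.mem_sup_right hw) hx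

theorem u_mod : (fixU M U).relIndex U % Nat.card W₁ = 1 := by
  have h1 := h.modEq_one le_rfl h.data.U_normal
  rw [← h.card_U, Nat.mul_mod, h.c_mod, one_mul, Nat.mod_mod] at h1
  exact h1

end Side

end CfsgLib.FT.PF13B
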